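import Mathlib

/-!
# Ladder ONAN (S2531): the abstract design part (rungs INJ, SUMN and their assembly)
-/

set_option autoImplicit false

namespace Cfsg.Agent.Lib.Helper77.ONan

section ABS

variable {Ω B : Type*} [Fintype Ω] [Fintype B] [DecidableEq Ω] [DecidableEq B]
  (I : Ω → B → Prop) [∀ x H, Decidable (I x H)] (k l : ℕ)

/-- INJ: the incidence matrix of a symmetric design is non-singular. -/
theorem inj (hlk : l < k)
    (h1 : ∀ H, (Finset.univ.filter fun x => I x H).card = k)
    (h2 : ∀ H H', H ≠ H' → (Finset.univ.filter fun x => I x H ∧ I x H').card = l)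
    (f : B → ℤ) (hf : ∀ x : Ω, ∑ H, (if I x H then f H else 0) = 0) (H : B) : f H = 0 := by
  have hk0 : (k : ℤ) ≠ 0 := by
    have : 0 < k := by omega
    exact_mod_cast this.ne'
  -- total sum
  have s1 : ∑ H', f H' = 0 := by
    have e1 : ∑ x : Ω, ∑ H', (if I x H' then f H' else 0) = 0 :=
      Finset.sum_eq_zero fun x _ => hf x
    rw [Finset.sum_comm] at e1
    have e2 : ∀ H' : B, ∑ x : Ω, (if I x H' then f H' else 0) = (k : ℤ) * f H' := by
      intro H'
      rw [← Finset.sum_filter, Finset.sum_const, h1 H', nsmul_eq_mul]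
    rw [Finset.sum_congr rfl fun H' _ => e2 H', ← Finset.mul_sum] at e1
    exact (mul_eq_zero.1 e1).resolve_left hk0
  have s2 : ∑ x : Ω, (if I x H then ∑ H', (if I x H' then f H' else 0) else 0) = 0 :=
    Finset.sum_eq_zero fun x _ => by rw [hf x]; simp
  have e3 : ∀ x : Ω, (if I x H then ∑ H', (if I x H' then f H' else 0) else 0)
      = ∑ H', (if I x H ∧ I x H' then f H' else 0) := by
    intro x
    by_cases hx : I x H <;> simp [hx]
  rw [Finset.sum_congr rfl fun x _ => e3 x, Finset.sum_comm] at s2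
  have e4 : ∀ H' : B, ∑ x : Ω, (if I x H ∧ I x H' then f H' else 0)
      = (l : ℤ) * f H' + (if H' = H then ((k : ℤ) - l) * f H else 0) := by
    intro H'
    rw [← Finset.sum_filter, Finset.sum_const, nsmul_eq_mul]
    by_cases hH : H' = H
    · subst hH
      simp only [and_self, if_true, h1]
      ring
    · rw [h2 H H' (Ne.symm hH), if_neg hH, add_zero]
  rw [Finset.sum_congr rfl fun H' _ => e4 H', Finset.sum_add_distrib, ← Finset.mul_sum, s1, mul_zero,
    zero_add, Finset.sum_ite_eq' Finset.univ H, if_pos (Finset.mem_univ _)] at s2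
  have hkl : ((k : ℤ) - l) ≠ 0 := by
    have : (l : ℤ) < k := by exact_mod_cast hlk
    omega
  exact (mul_eq_zero.1 s2).resolve_left hkl

/-- The number of `s ∈ S` fixing `a` and mapping the block `H` onto the block `H₀`. -/
noncomputable def cnt (S : Set (Equiv.Perm Ω)) (a : Ω) (H₀ H : B) : ℕ :=
  Nat.card {s : Equiv.Perm Ω // s ∈ S ∧ s a = a ∧ ∀ x, I x H ↔ I (s x) H₀}

/-- SUMN. -/
theorem sum_cnt (hlk : l < k)
    (h1 : ∀ H, (Finset.univ.filter fun x => I x H).card = k)
    (h2 : ∀ H H', H ≠ H' → (Finset.univ.filter fun x => I x H ∧ I x H').card = l)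
    (S : Set (Equiv.Perm Ω))
    (hcol : ∀ s ∈ S, ∀ H', ∃ H, ∀ x, I x H ↔ I (s x) H')
    (hsharp : ∀ a b c d : Ω, a ≠ b → c ≠ d → ∃! s, s ∈ S ∧ s a = c ∧ s b = d)
    (a : Ω) (H₀ : B) (ha : ¬ I a H₀) (b : Ω) :
    ∑ H, (if I b H then cnt I S a H₀ H else 0) = if b = a then 0 else k := by
  classical
  let Tf : Finset (Equiv.Perm Ω) := Finset.univ.filter (fun s => s ∈ S ∧ s a = a)
  have hcnt : ∀ H, cnt I S a H₀ H = (Tf.filter (fun s => ∀ x, I x H ↔ I (s x) H₀)).card := by
    intro H
    unfold cnt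
    rw [Nat.card_eq_fintype_card, Fintype.card_subtype, Finset.filter_filter]
    refine congrArg _ (Finset.filter_congr fun s _ => ?_)
    tauto
  have huniq : ∀ H H' : B, (∀ x, I x H ↔ I x H') → H = H' := by
    intro H H' h
    by_contra hne
    have e1 := h2 H H' hne
    have e2 : (Finset.univ.filter fun x => I x H ∧ I x H') = Finset.univ.filter fun x => I x H := by
      refine Finset.filter_congr fun x _ => ?_
      rw [← h x, and_self]
    rw [e2, h1] at e1
    omega
  have e1 : ∀ H, (if I b H then cnt I S a H₀ H else 0)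
      = ∑ s ∈ Tf, (if I b H ∧ ∀ x, I x H ↔ I (s x) H₀ then 1 else 0) := by
    intro H
    rw [hcnt, Finset.card_filter]
    by_cases hb : I b H <;> simp [hb]
  rw [Finset.sum_congr rfl fun H _ => e1 H, Finset.sum_comm]
  have e2 : ∀ s ∈ Tf, ∑ H, (if I b H ∧ ∀ x, I x H ↔ I (s x) H₀ then 1 else 0)
      = if I (s b) H₀ then 1 else 0 := by
    intro s hs
    have hsS : s ∈ S := (Finset.mem_filter.1 hs).2.1
    obtain ⟨Hs, hHs⟩ := hcol s hsS H₀
    rw [Finset.sum_eq_single Hs]
    · by_cases hb : I (s b) H₀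
      · rw [if_pos hb, if_pos ⟨(hHs b).2 hb, hHs⟩]
      · rw [if_neg hb, if_neg (fun h => hb ((hHs b).1 h.1))]
    · intro H _ hH
      rw [if_neg]
      rintro ⟨-, h⟩
      exact hH (huniq H Hs fun x => (h x).trans (hHs x).symm)
    · intro h
      exact absurd (Finset.mem_univ _) h
  rw [Finset.sum_congr rfl e2, ← Finset.card_filter]
  split_ifs with hba
  · subst hba
    rw [Finset.card_eq_zero, Finset.filter_eq_empty_iff]
    intro s hs
    rw [(Finset.mem_filter.1 hs).2.2]
    exact ha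
  · rw [← h1 H₀]
    refine Finset.card_bij (fun s _ => s b) ?_ ?_ ?_
    · intro s hs
      exact Finset.mem_filter.2 ⟨Finset.mem_univ _, (Finset.mem_filter.1 hs).2⟩
    · intro s hs s' hs' hss
      have hs1 := Finset.mem_filter.1 (Finset.mem_filter.1 hs).1
      have hs1' := Finset.mem_filter.1 (Finset.mem_filter.1 hs').1
      have hy : a ≠ s b := by
        intro h
        exact ha (h ▸ (Finset.mem_filter.1 hs).2)
      obtain ⟨t, -, ht⟩ := hsharp a b a (s b) (Ne.symm hba) hy
      rw [ht s ⟨hs1.2.1, hs1.2.2, rfl⟩, ht s' ⟨hs1'.2.1, hs1'.2.2, hss.symm⟩]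
    · intro y hy
      have hyH : I y H₀ := (Finset.mem_filter.1 hy).2
      have hya : a ≠ y := by
        intro h
        exact ha (h ▸ hyH)
      obtain ⟨t, ⟨ht1, ht2, ht3⟩, -⟩ := hsharp a b a y (Ne.symm hba) hya
      refine ⟨t, Finset.mem_filter.2 ⟨Finset.mem_filter.2 ⟨Finset.mem_univ _, ht1, ht2⟩, ?_⟩, ht3⟩
      rw [ht3]
      exact hyH

end ABS

end Cfsg.Agent.Lib.Helper77.ONan
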