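import Mathlib

/-!
# Ladder ONAN (S2531), rung CNT: point counts
-/

set_option autoImplicit false
set_option linter.unusedSectionVars false
set_option linter.unusedVariables false

namespace Cfsg.Agent.Lib.Helper77.ONan

open scoped LinearAlgebra.Projectivization

variable {F : Type*} [Field F] [Finite F] {n : ℕ}

theorem cnt_inj {U V : Type*} [AddCommGroup U] [Module F U] [Finite U] [AddCommGroup V] [Module F V]
    (ι : U →ₗ[F] V) (hι : Function.Injective ι) (P : ℙ F V → Prop)
    (hP : ∀ (v : V) (hv : v ≠ 0), P (Projectivization.mk F v hv) ↔ ∃ u, ι u = v) :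
    Nat.card {x : ℙ F V // P x} * (Nat.card F - 1) + 1 = Nat.card U := by
  have hmem : ∀ y : ℙ F U, P (Projectivization.map ι hι y) := by
    intro y
    induction y using Projectivization.ind with
    | h u hu =>
      rw [Projectivization.map_mk, hP]
      exact ⟨u, rfl⟩
  let e : ℙ F U → {x : ℙ F V // P x} := fun y => ⟨Projectivization.map ι hι y, hmem y⟩
  have hbij : Function.Bijective e := by
    constructor
    · intro y y' h
      exact Projectivization.map_injective ι hι (congrArg Subtype.val h)
    · rintro ⟨x, hx⟩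
      induction x using Projectivization.ind with
      | h v hv =>
        obtain ⟨u, rfl⟩ := (hP v hv).1 hx
        have hu : u ≠ 0 := by
          rintro rfl
          exact hv (map_zero ι)
        refine ⟨Projectivization.mk F u hu, Subtype.ext ?_⟩
        show Projectivization.map ι hι (Projectivization.mk F u hu) = _
        rw [Projectivization.map_mk]
  rw [← Nat.card_congr (Equiv.ofBijective e hbij), ← Projectivization.card' F U]

/-- The functional `v ↦ v ⬝ᵥ h`. -/
def cntDot (h : Fin n → F) : (Fin n → F) →ₗ[F] F where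
  toFun v := v ⬝ᵥ h
  map_add' v w := add_dotProduct v w h
  map_smul' c v := by simp [smul_dotProduct]

theorem cntDot_apply (h v : Fin n → F) : cntDot h v = v ⬝ᵥ h := rfl

theorem cntDot_ne_zero {h : Fin n → F} (hh : h ≠ 0) : cntDot h ≠ 0 := by
  classical
  intro h0
  apply hh
  funext i
  have := congrArg (fun φ => φ (Pi.single i 1)) h0
  simpa [cntDot_apply] using this

theorem cnt_card_ker {h : Fin n → F} (hh : h ≠ 0) :
    Nat.card (LinearMap.ker (cntDot h)) = Nat.card F ^ (n - 1) := by
  have e1 := Module.Dual.finrank_ker_add_one_of_ne_zero (cntDot_ne_zero hh)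
  rw [Module.finrank_fin_fun] at e1
  rw [Module.natCard_eq_pow_finrank (K := F)]
  congr 1
  omega

/-- CNT1. -/
theorem cnt1 (hn : 1 ≤ n) (H : ℙ F (Fin n → F)) :
    Nat.card {x : ℙ F (Fin n → F) // x.orthogonal H} * (Nat.card F - 1) + 1 = Nat.card F ^ (n - 1) := by
  induction H using Projectivization.ind with
  | h h hh =>
    rw [← cnt_card_ker hh]
    refine cnt_inj (LinearMap.ker (cntDot h)).subtype (Submodule.subtype_injective _) _ ?_
    intro v hv
    rw [Projectivization.orthogonal_mk]
    constructor
    · intro hvh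
      exact ⟨⟨v, hvh⟩, rfl⟩
    · rintro ⟨u, rfl⟩
      exact u.2

/-- CNT2. -/
theorem cnt2 (hn : 2 ≤ n) (H H' : ℙ F (Fin n → F)) (h : H ≠ H') :
    Nat.card {x : ℙ F (Fin n → F) // x.orthogonal H ∧ x.orthogonal H'} * (Nat.card F - 1) + 1
      = Nat.card F ^ (n - 2) := by
  classical
  induction H using Projectivization.ind with
  | h a ha =>
  induction H' using Projectivization.ind with
  | h b hb =>
    let W := LinearMap.ker (cntDot a)
    let ψ : W →ₗ[F] F := (cntDot b).domRestrict W
    have hψ : ψ ≠ 0 := by
      intro h0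
      apply h
      -- `b` is proportional to `a`
      obtain ⟨i, hi⟩ : ∃ i, a i ≠ 0 := by
        by_contra hcon
        push Not at hcon
        exact ha (funext hcon)
      let v0 : Fin n → F := Pi.single i (a i)⁻¹
      have hv0 : v0 ⬝ᵥ a = 1 := by
        simp [v0, inv_mul_cancel₀ hi]
      have key : ∀ v : Fin n → F, v ⬝ᵥ b = (v ⬝ᵥ a) * (v0 ⬝ᵥ b) := by
        intro v
        have hmem : v - (v ⬝ᵥ a) • v0 ∈ W := by
          show (v - (v ⬝ᵥ a) • v0) ⬝ᵥ a = 0
          rw [sub_dotProduct, smul_dotProduct, hv0]
          simp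
        have e1 := congrArg (fun φ => φ ⟨_, hmem⟩) h0
        have e2 : (v - (v ⬝ᵥ a) • v0) ⬝ᵥ b = 0 := e1
        rw [sub_dotProduct, smul_dotProduct, sub_eq_zero] at e2
        simpa using e2
      rw [Projectivization.mk_eq_mk_iff']
      have hb' : b = (v0 ⬝ᵥ b) • a := by
        funext j
        have := key (Pi.single j 1)
        simp only [single_dotProduct, one_mul] at this
        rw [this, Pi.smul_apply, smul_eq_mul, mul_comm]
      have hc : v0 ⬝ᵥ b ≠ 0 := by
        intro h0'
        rw [h0', zero_smul] at hb'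
        exact hb hb'
      generalize v0 ⬝ᵥ b = c at hb' hc
      refine ⟨c⁻¹, ?_⟩
      rw [hb', smul_smul, inv_mul_cancel₀ hc, one_smul]
    have hW : Module.finrank F W + 1 = n := by
      have e1 := Module.Dual.finrank_ker_add_one_of_ne_zero (cntDot_ne_zero ha)
      rwa [Module.finrank_fin_fun] at e1
    have hK : Module.finrank F (LinearMap.ker ψ) + 1 = Module.finrank F W :=
      Module.Dual.finrank_ker_add_one_of_ne_zero hψ
    have hcard : Nat.card (LinearMap.ker ψ) = Nat.card F ^ (n - 2) := by
      rw [Module.natCard_eq_pow_finrank (K := F)]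
      congr 1
      omega
    rw [← hcard]
    refine cnt_inj (W.subtype ∘ₗ (LinearMap.ker ψ).subtype)
      ((Submodule.subtype_injective _).comp (Submodule.subtype_injective _)) _ ?_
    intro v hv
    rw [Projectivization.orthogonal_mk, Projectivization.orthogonal_mk]
    constructor
    · rintro ⟨h1, h2⟩
      exact ⟨⟨⟨v, h1⟩, h2⟩, rfl⟩
    · rintro ⟨u, rfl⟩
      exact ⟨u.1.2, u.2⟩

end Cfsg.Agent.Lib.Helper77.ONan
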