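import Mathlib

/-!
# Ladder ONAN (S2531), rung COL: semilinear bijections map hyperplanes to hyperplanes
-/

set_option autoImplicit false

namespace Cfsg.Agent.Lib.Helper77.ONan

open scoped LinearAlgebra.Projectivization

variable {F : Type*} [Field F] [Finite F] {n : ℕ}

/-- COL. -/
theorem col (σ : F ≃+* F) (f : (Fin n → F) →ₛₗ[(σ : F →+* F)] (Fin n → F)) (hf : Function.Injective f)
    (H' : ℙ F (Fin n → F)) :
    ∃ H : ℙ F (Fin n → F), ∀ x : ℙ F (Fin n → F),
      x.orthogonal H ↔ (Projectivization.map f hf x).orthogonal H' := by
  classical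
  induction H' using Projectivization.ind with
  | h h' hh' =>
    let h : Fin n → F := fun i => σ.symm (f (Pi.single i 1) ⬝ᵥ h')
    have key : ∀ w : Fin n → F, σ (w ⬝ᵥ h) = f w ⬝ᵥ h' := by
      intro w
      have e1 : w = ∑ i, w i • (Pi.single i 1 : Fin n → F) := by
        funext j
        simp [Finset.sum_apply, Pi.single_apply]
      conv_rhs => rw [e1, map_sum, sum_dotProduct]
      simp only [dotProduct, map_sum, map_mul, h, RingEquiv.apply_symm_apply]
      refine Finset.sum_congr rfl fun i _ => ?_
      rw [map_smulₛₗ]
      simp [Finset.mul_sum, mul_assoc]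
    have hsurj : Function.Surjective f := Finite.surjective_of_injective hf
    have hh : h ≠ 0 := by
      intro h0
      obtain ⟨i, hi⟩ : ∃ i, h' i ≠ 0 := by
        by_contra hcon
        push Not at hcon
        exact hh' (funext hcon)
      obtain ⟨w, hw⟩ := hsurj (Pi.single i 1)
      have e1 := key w
      rw [h0, dotProduct_zero, map_zero, hw] at e1
      simp at e1
      exact hi e1.symm
    refine ⟨Projectivization.mk F h hh, fun x => ?_⟩
    induction x using Projectivization.ind with
    | h v hv =>
      rw [Projectivization.map_mk, Projectivization.orthogonal_mk, Projectivization.orthogonal_mk,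
        ← key v]
      simp

end Cfsg.Agent.Lib.Helper77.ONan
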