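import Cfsg.Agent.Lib.Helper77.ONan.Abs
import Cfsg.Agent.Lib.Helper77.ONan.Cnt
import Cfsg.Agent.Lib.Helper77.ONan.Col

/-!
# Ladder ONAN (S2531): assembly
-/

set_option autoImplicit false

namespace Cfsg.Agent.Lib.Helper77.ONan

open scoped LinearAlgebra.Projectivization

section ABS

variable {Ω B : Type*} [Fintype Ω] [Fintype B] [DecidableEq Ω] [DecidableEq B]
  (I : Ω → B → Prop) [∀ x H, Decidable (I x H)] (k l : ℕ)

/-- Assembly of the abstract part. -/
theorem design_no_sharp (hlk : l < k)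
    (h1 : ∀ H, (Finset.univ.filter fun x => I x H).card = k)
    (h2 : ∀ H H', H ≠ H' → (Finset.univ.filter fun x => I x H ∧ I x H').card = l)
    (h3 : ∀ x, (Finset.univ.filter fun H => I x H).card = k)
    (h4 : ∀ x y, x ≠ y → (Finset.univ.filter fun H => I x H ∧ I y H).card = l)
    (S : Set (Equiv.Perm Ω))
    (hcol : ∀ s ∈ S, ∀ H', ∃ H, ∀ x, I x H ↔ I (s x) H')
    (hsharp : ∀ a b c d : Ω, a ≠ b → c ≠ d → ∃! s, s ∈ S ∧ s a = c ∧ s b = d)
    (a : Ω) (H₀ : B) (ha : ¬ I a H₀) : (k - l) ∣ k := by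
  have key := inj I k l hlk h1 h2
    (fun H => ((k - l : ℕ) : ℤ) * (cnt I S a H₀ H : ℤ) - (if I a H then 0 else (k : ℤ))) ?_ H₀
  · rw [if_neg ha, sub_eq_zero] at key
    exact ⟨cnt I S a H₀ H₀, by exact_mod_cast key.symm⟩
  · intro b
    have e1 := sum_cnt I k l hlk h1 h2 S hcol hsharp a H₀ ha b
    have e1' : ∑ H, (if I b H then (cnt I S a H₀ H : ℤ) else 0) = if b = a then 0 else (k : ℤ) := by
      have := congrArg (Nat.cast : ℕ → ℤ) e1
      push_cast at this
      rw [← this]
    have e2 : ∑ H, (if I b H then (if I a H then 0 else (k : ℤ)) else 0)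
        = if b = a then 0 else ((k - l : ℕ) : ℤ) * k := by
      split_ifs with hb
      · subst hb
        refine Finset.sum_eq_zero fun H _ => ?_
        split_ifs <;> rfl
      · have e3 : ∀ H, (if I b H then (if I a H then 0 else (k : ℤ)) else 0)
            = (k : ℤ) * ((if I b H then 1 else 0) - (if I b H ∧ I a H then 1 else 0)) := by
          intro H
          by_cases hbH : I b H <;> by_cases haH : I a H <;> simp [hbH, haH]
        rw [Finset.sum_congr rfl fun H _ => e3 H, ← Finset.mul_sum, Finset.sum_sub_distrib,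
          Finset.sum_boole, Finset.sum_boole, h3 b, h4 b a hb, Nat.cast_sub hlk.le]
        ring
    have e4 : ∀ H, (if I b H then (((k - l : ℕ) : ℤ) * (cnt I S a H₀ H : ℤ)
          - (if I a H then 0 else (k : ℤ))) else 0)
        = ((k - l : ℕ) : ℤ) * (if I b H then (cnt I S a H₀ H : ℤ) else 0)
          - (if I b H then (if I a H then 0 else (k : ℤ)) else 0) := by
      intro H
      by_cases hbH : I b H <;> simp [hbH]
    rw [Finset.sum_congr rfl fun H _ => e4 H, Finset.sum_sub_distrib, ← Finset.mul_sum, e1', e2]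
    split_ifs <;> simp

end ABS

theorem main {F : Type*} [Field F] [Finite F]
    (n : ℕ) (hn : 3 ≤ n) (S : Set (Equiv.Perm (Projectivization F (Fin n → F))))
    (hS : ∀ s ∈ S, ∃ (σ : F ≃+* F) (f : (Fin n → F) →ₛₗ[(σ : F →+* F)] (Fin n → F)) (hf : Function.Injective f),
      ∀ x, s x = Projectivization.map f hf x) :
    ¬ (∀ a b c d : Projectivization F (Fin n → F), a ≠ b → c ≠ d →
        ∃! s, s ∈ S ∧ s a = c ∧ s b = d) := by
  classical
  intro hsharp
  have : Fintype F := Fintype.ofFinite F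
  have : Finite (ℙ F (Fin n → F)) := (Projectivization.finite_iff_of_finite F (Fin n → F)).2 inferInstance
  have : Fintype (ℙ F (Fin n → F)) := Fintype.ofFinite _
  set q := Nat.card F with hq
  have hq2 : 2 ≤ q := Finite.one_lt_card
  obtain ⟨r, hr⟩ : ∃ r, n = r + 3 := ⟨n - 3, by omega⟩
  have hne : Nonempty (ℙ F (Fin n → F)) := by
    refine ⟨Projectivization.mk F (Pi.single ⟨0, by omega⟩ 1) ?_⟩
    intro h
    have := congrFun h ⟨0, by omega⟩
    simp at this
  obtain ⟨a⟩ := hne
  obtain ⟨H₀, hH₀⟩ := Projectivization.exists_not_self_orthogonal a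
  -- the parameters
  set k := Nat.card {x : ℙ F (Fin n → F) // x.orthogonal H₀} with hk
  have hk1 : ∀ H : ℙ F (Fin n → F), Nat.card {x : ℙ F (Fin n → F) // x.orthogonal H} = k := by
    intro H
    have e1 := cnt1 (by omega : 1 ≤ n) H
    have e2 := cnt1 (by omega : 1 ≤ n) H₀
    rw [← e2] at e1
    have e3 := Nat.add_right_cancel e1
    exact Nat.eq_of_mul_eq_mul_right (by omega) e3
  have hne0 : ∀ i : Fin n, (Pi.single i 1 : Fin n → F) ≠ 0 := by
    intro i h
    have := congrFun h i
    simp at this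
  let E0 : ℙ F (Fin n → F) := Projectivization.mk F (Pi.single ⟨0, by omega⟩ 1) (hne0 _)
  let E1 : ℙ F (Fin n → F) := Projectivization.mk F (Pi.single ⟨1, by omega⟩ 1) (hne0 _)
  have h01 : E0 ≠ E1 := by
    intro h
    have e1 : E0.orthogonal E1 := by
      rw [Projectivization.orthogonal_mk]
      simp [Fin.ext_iff]
    rw [← h, Projectivization.orthogonal_mk] at e1
    simp at e1
  set l := Nat.card {x : ℙ F (Fin n → F) // x.orthogonal E0 ∧ x.orthogonal E1} with hl
  have hlq : l * (q - 1) + 1 = q ^ (n - 2) := cnt2 (by omega : 2 ≤ n) E0 E1 h01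
  have hl1 : ∀ H H' : ℙ F (Fin n → F), H ≠ H' →
      Nat.card {x : ℙ F (Fin n → F) // x.orthogonal H ∧ x.orthogonal H'} = l := by
    intro H H' h
    have e1 := cnt2 (by omega : 2 ≤ n) H H' h
    rw [← hlq] at e1
    exact Nat.eq_of_mul_eq_mul_right (by omega) (Nat.add_right_cancel e1)
  have hkq : k * (q - 1) + 1 = q ^ (n - 1) := cnt1 (by omega : 1 ≤ n) H₀
  subst hr
  have hp1 : q ^ (r + 3 - 1) = q * q ^ (r + 1) := by
    rw [show r + 3 - 1 = (r + 1) + 1 by omega, pow_succ]; ring
  have hp2 : q ^ (r + 3 - 2) = q ^ (r + 1) := by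
    rw [show r + 3 - 2 = r + 1 by omega]
  rw [hp1] at hkq
  rw [hp2] at hlq
  obtain ⟨t, ht⟩ : ∃ t, q = t + 1 := ⟨q - 1, by omega⟩
  have ht0 : 0 < t := by omega
  have hkl : k = l + q ^ (r + 1) := by
    have e1 : k * t = (l + q ^ (r + 1)) * t := by
      have a1 : k * t + 1 = (t + 1) * q ^ (r + 1) := by
        have := hkq
        rw [ht] at this ⊢
        simpa using this
      have a2 : l * t + 1 = q ^ (r + 1) := by
        have := hlq
        rw [ht] at this ⊢
        simpa using this
      nlinarith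
    exact Nat.eq_of_mul_eq_mul_right ht0 e1
  have hlk : l < k := by
    have : 0 < q ^ (r + 1) := by positivity
    omega
  have hdvd := design_no_sharp (fun x H : ℙ F (Fin (r + 3) → F) => x.orthogonal H) k l hlk
    (fun H => by rw [← hk1 H, Nat.card_eq_fintype_card, Fintype.card_subtype])
    (fun H H' h => by rw [← hl1 H H' h, Nat.card_eq_fintype_card, Fintype.card_subtype])
    (fun x => by
      rw [← hk1 x, Nat.card_eq_fintype_card, Fintype.card_subtype]
      simp only [Projectivization.orthogonal_comm])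
    (fun x y h => by
      rw [← hl1 x y h, Nat.card_eq_fintype_card, Fintype.card_subtype]
      simp only [Projectivization.orthogonal_comm])
    S
    (fun s hs H' => by
      obtain ⟨σ, f, hf, hsf⟩ := hS s hs
      obtain ⟨H, hH⟩ := col σ f hf H'
      exact ⟨H, fun x => by rw [hsf x]; exact hH x⟩)
    hsharp a H₀ hH₀
  have hsub : k - l = q ^ (r + 1) := by omega
  rw [hsub] at hdvd
  have hqk : q ∣ k := Dvd.dvd.trans (dvd_pow_self q (by omega)) hdvd
  have h1 : q ∣ k * (q - 1) + 1 := by rw [hkq]; exact Dvd.intro _ rfl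
  have h2 : q ∣ 1 := (Nat.dvd_add_right (Dvd.dvd.mul_right hqk _)).1 h1
  have := Nat.le_of_dvd one_pos h2
  omega

end Cfsg.Agent.Lib.Helper77.ONan
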